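import Cfsg.Agent.Lib.H14.GF1
import Cfsg.Agent.Lib.H13.ElemAb
import Cfsg.Agent.Lib.H13.Thompson

/-!
# E-groups: the link with the frozen definitions, and the basic properties of `Ĵ(S)`
-/

set_option autoImplicit false
set_option linter.unusedVariables false

universe u

namespace H52.EGr

open Subgroup Cfsg H14.GF

section basic

variable {G : Type u} [Group G]

theorem mem_cen {A : Subgroup G} {x : G} : x ∈ centralizer (A : Set G) ↔ ∀ a ∈ A, a * x = x * a :=
  mem_centralizer_iff

theorem card_io [Finite G] (W A : Subgroup G) : Nat.card ↥(W ⊓ centralizer (A : Set G)) * io W A = Nat.card W := by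
  unfold io
  rw [← Subgroup.inf_relIndex_right, inf_comm]
  have h := Subgroup.relIndex_mul_relIndex ⊥ (centralizer (A : Set G) ⊓ W) W bot_le inf_le_right
  rwa [Subgroup.relIndex_bot_left, Subgroup.relIndex_bot_left] at h

theorem io_pos [Finite G] (W A : Subgroup G) : 0 < io W A := by
  have h := card_io W A
  have h1 : 0 < Nat.card W := Nat.card_pos
  rw [← h] at h1
  exact Nat.pos_of_mul_pos_left h1

theorem centralizer_map_inf {K : Type*} [Group K] {f : K →* G} (hf : Function.Injective f) (A : Subgroup K) :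
    centralizer ((A.map f : Subgroup G) : Set G) ⊓ f.range = (centralizer (A : Set K)).map f := by
  ext x
  constructor
  · rintro ⟨h1, ⟨y, rfl⟩⟩
    refine ⟨y, ?_, rfl⟩
    show y ∈ centralizer (A : Set K)
    rw [mem_centralizer_iff]
    intro a ha
    apply hf
    rw [map_mul, map_mul]
    exact mem_centralizer_iff.1 h1 _ ⟨a, ha, rfl⟩
  · rintro ⟨y, hy, rfl⟩
    refine ⟨?_, ⟨y, rfl⟩⟩
    show f y ∈ centralizer _
    rw [mem_centralizer_iff]
    rintro _ ⟨a, ha, rfl⟩
    rw [← map_mul, ← map_mul]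
    exact congrArg f (mem_centralizer_iff.1 hy a ha)

theorem mem_cen_map {K : Type*} [Group K] {f : K →* G} (hf : Function.Injective f) {A : Subgroup K} {y : K} :
    f y ∈ centralizer ((A.map f : Subgroup G) : Set G) ↔ y ∈ centralizer (A : Set K) := by
  rw [mem_centralizer_iff, mem_centralizer_iff]
  constructor
  · intro h a ha
    apply hf
    rw [map_mul, map_mul]
    exact h _ ⟨a, ha, rfl⟩
  · rintro h _ ⟨a, ha, rfl⟩
    rw [← map_mul, ← map_mul]
    exact congrArg f (h a ha)

theorem inf_map {K : Type*} [Group K] {f : K →* G} (hf : Function.Injective f) (W A : Subgroup K) :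
    W.map f ⊓ centralizer ((A.map f : Subgroup G) : Set G) = (W ⊓ centralizer (A : Set K)).map f := by
  ext x
  constructor
  · rintro ⟨⟨y, hy, rfl⟩, h2⟩
    exact ⟨y, ⟨hy, (mem_cen_map hf).1 h2⟩, rfl⟩
  · rintro ⟨y, ⟨hy, hy2⟩, rfl⟩
    exact ⟨⟨y, hy, rfl⟩, (mem_cen_map hf).2 hy2⟩

end basic

section link

variable {G K : Type*} [Group G] [Group K] [Finite G] [Finite K] {f : K →* G} (hf : Function.Injective f)

include hf

theorem ineq_iff (V R : Subgroup K) :
    ((Nat.card V) ^ 2 * (Nat.card ↥(R ⊓ Subgroup.centralizer (V : Set K))) ^ 3 >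
            (Nat.card R) ^ 3 * (Nat.card ↥(V ⊓ Subgroup.centralizer (R : Set K))) ^ 2 ∧
          Nat.card ↥⁅V, R⁆ * Nat.card ↥(R ⊓ Subgroup.centralizer (V : Set K)) > Nat.card R) ↔
    (io (R.map f) (V.map f) ^ 3 < io (V.map f) (R.map f) ^ 2 ∧
      io (R.map f) (V.map f) < Nat.card ↥⁅V.map f, R.map f⁆) := by
  have h1 := card_io (V.map f) (R.map f)
  have h2 := card_io (R.map f) (V.map f)
  rw [inf_map hf, card_map_of_injective hf, card_map_of_injective hf] at h1 h2
  have h3 : Nat.card ↥⁅V.map f, R.map f⁆ = Nat.card ↥⁅V, R⁆ := by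
    rw [← Subgroup.map_commutator, card_map_of_injective hf]
  rw [h3]
  have p1 : 0 < Nat.card ↥(V ⊓ centralizer (R : Set K)) := Nat.card_pos
  have p2 : 0 < Nat.card ↥(R ⊓ centralizer (V : Set K)) := Nat.card_pos
  set a := Nat.card ↥(V ⊓ centralizer (R : Set K))
  set b := Nat.card ↥(R ⊓ centralizer (V : Set K))
  set v := io (V.map f) (R.map f)
  set r := io (R.map f) (V.map f)
  rw [← h1, ← h2]
  have e1 : (a * v) ^ 2 * b ^ 3 = (a ^ 2 * b ^ 3) * v ^ 2 := by ring
  have e2 : (b * r) ^ 3 * a ^ 2 = (a ^ 2 * b ^ 3) * r ^ 3 := by ring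
  rw [e1, e2]
  have p3 : 0 < a ^ 2 * b ^ 3 := by positivity
  constructor
  · rintro ⟨g1, g2⟩
    refine ⟨Nat.lt_of_mul_lt_mul_left g1, ?_⟩
    rw [mul_comm b r] at g2
    exact Nat.lt_of_mul_lt_mul_right g2
  · rintro ⟨g1, g2⟩
    refine ⟨Nat.mul_lt_mul_of_pos_left g1 p3, ?_⟩
    rw [mul_comm b r]
    exact Nat.mul_lt_mul_of_pos_right g2 p2

theorem isEGroup_iff : IsEGroup K ↔ EG f.range := by
  constructor
  · intro h V hV
    set V0 := V.comap f with hV0
    have hVm : V0.map f = V := by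
      rw [hV0, Subgroup.map_comap_eq, inf_eq_right]
      exact hV.le
    have hn : V0.Normal := by
      constructor
      intro n hn g
      show f (g * n * g⁻¹) ∈ V
      rw [map_mul, map_mul, map_inv]
      exact (mem_normalizer_iff.1 (hV.nrm ⟨g, rfl⟩) _).1 hn
    have hel : IsElementaryAbelian 2 V0 := by
      refine ⟨⟨⟨fun x y => Subtype.ext (hf ?_)⟩⟩, fun a ha => hf ?_⟩
      · show f ((x : K) * y) = f ((y : K) * x)
        rw [map_mul, map_mul]
        exact hV.comm _ x.2 _ y.2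
      · rw [map_pow, map_one, pow_two]
        exact hV.sq _ ha
    have h1 := h V0 hn hel ?_
    · rintro _ ⟨x, rfl⟩
      rw [← hVm, mem_cen_map hf, mem_centralizer_iff]
      intro v hv
      exact (mem_center_iff.1 (h1 hv) x).symm
    · intro R hc hs hne
      rw [ineq_iff hf V0 R, hVm]
      apply hV.ineq
      · exact map_le_range f R
      · rintro _ ⟨a, ha, rfl⟩ _ ⟨b, hb, rfl⟩
        rw [← hVm, ← map_mul, ← map_inv, ← map_mul, ← map_inv, ← map_mul, mem_cen_map hf]
        have := hc (commutator_mem_commutator ha hb)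
        rwa [commutatorElement_def] at this
      · rintro _ ⟨a, ha, rfl⟩
        rw [← hVm, ← map_mul, mem_cen_map hf, ← pow_two]
        exact hs a ha
      · intro hle
        apply hne
        intro x hx
        rw [← mem_cen_map hf, hVm]
        exact hle ⟨x, hx, rfl⟩
  · intro h V hn hel hin
    have hS : Strong f.range (V.map f) := by
      refine ⟨map_le_range f V, ?_, ?_, ?_, ?_⟩
      · rintro _ ⟨g, rfl⟩
        rw [mem_normalizer_iff]
        intro x
        constructor
        · rintro ⟨v, hv, rfl⟩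
          refine ⟨g * v * g⁻¹, hn.conj_mem v hv g, ?_⟩
          rw [map_mul, map_mul, map_inv]
        · rintro ⟨v, hv, hvx⟩
          refine ⟨g⁻¹ * v * g, ?_, ?_⟩
          · have := hn.conj_mem v hv g⁻¹
            rwa [inv_inv] at this
          · rw [map_mul, map_mul, map_inv, hvx]; group
      · rintro _ ⟨a, ha, rfl⟩ _ ⟨b, hb, rfl⟩
        rw [← map_mul, ← map_mul]
        exact congrArg f (congrArg Subtype.val (hel.1.is_comm.comm (⟨a, ha⟩ : V) ⟨b, hb⟩))
      · rintro _ ⟨a, ha, rfl⟩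
        rw [← map_mul, ← pow_two, hel.2 a ha, map_one]
      · intro R hR hc hs hne
        set R0 := R.comap f with hR0
        have hRm : R0.map f = R := by
          rw [hR0, Subgroup.map_comap_eq, inf_eq_right]
          exact hR
        rw [← hRm, ← ineq_iff hf V R0]
        apply hin
        · rw [commutator_le]
          intro a ha b hb
          rw [← mem_cen_map hf, commutatorElement_def, map_mul, map_mul, map_mul, map_inv, map_inv]
          exact hc _ ha _ hb
        · intro r hr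
          rw [← mem_cen_map hf, pow_two, map_mul]
          exact hs _ hr
        · intro hle
          apply hne
          rw [← hRm]
          rintro _ ⟨x, hx, rfl⟩
          rw [mem_cen_map hf]
          exact hle hx
    have h1 := h _ hS
    intro v hv
    rw [mem_center_iff]
    intro x
    have h2 := (mem_cen_map hf).1 (h1 ⟨x, rfl⟩)
    exact (mem_centralizer_iff.1 h2 v hv).symm

end link

section main

variable {G : Type u} [Group G] [Finite G]

theorem eg_iff (T : Subgroup G) : IsEGroup ↥T ↔ EG T := by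
  have h := isEGroup_iff (K := ↥T) (f := T.subtype) T.subtype_injective
  rwa [range_subtype] at h

/-- elementwise elementary abelian -/
def EL (A : Subgroup G) : Prop := (∀ a ∈ A, ∀ b ∈ A, a * b = b * a) ∧ ∀ a ∈ A, a * a = 1

omit [Finite G] in
theorem EL.sup {A B : Subgroup G} (hA : EL A) (hB : EL B) (h : ∀ a ∈ A, ∀ b ∈ B, a * b = b * a) : EL (A ⊔ B) := by
  have hmem : ∀ x ∈ A ⊔ B, ∃ a ∈ A, ∃ b ∈ B, x = a * b := by
    intro x hx
    rw [sup_eq_closure] at hx
    induction hx using closure_induction with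
    | mem x hx =>
      rcases hx with hx | hx
      · exact ⟨x, hx, 1, one_mem _, (mul_one x).symm⟩
      · exact ⟨1, one_mem _, x, hx, (one_mul x).symm⟩
    | one => exact ⟨1, one_mem _, 1, one_mem _, (mul_one 1).symm⟩
    | mul x y _ _ hx hy =>
      obtain ⟨a, ha, b, hb, rfl⟩ := hx
      obtain ⟨c, hc, d, hd, rfl⟩ := hy
      refine ⟨a * c, mul_mem ha hc, b * d, mul_mem hb hd, ?_⟩
      rw [mul_assoc, ← mul_assoc b, ← h c hc b hb]; group
    | inv x _ hx =>
      obtain ⟨a, ha, b, hb, rfl⟩ := hx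
      refine ⟨a⁻¹, inv_mem ha, b⁻¹, inv_mem hb, ?_⟩
      rw [h a ha b hb, mul_inv_rev]
  constructor
  · intro x hx y hy
    obtain ⟨a, ha, b, hb, rfl⟩ := hmem x hx
    obtain ⟨c, hc, d, hd, rfl⟩ := hmem y hy
    have e1 : a * b * (c * d) = a * c * (b * d) := by rw [mul_assoc, ← mul_assoc b, ← h c hc b hb]; group
    have e2 : c * d * (a * b) = c * a * (d * b) := by rw [mul_assoc, ← mul_assoc d, ← h a ha d hd]; group
    rw [e1, e2, hA.1 a ha c hc, hB.1 b hb d hd]
  · intro x hx
    obtain ⟨a, ha, b, hb, rfl⟩ := hmem x hx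
    have e1 : a * b * (a * b) = a * a * (b * b) := by rw [mul_assoc, ← mul_assoc b, ← h a ha b hb]; group
    rw [e1, hA.2 a ha, hB.2 b hb, mul_one]

omit [Finite G] in
theorem EL.mono {A B : Subgroup G} (hB : EL B) (h : A ≤ B) : EL A :=
  ⟨fun a ha b hb => hB.1 a (h ha) b (h hb), fun a ha => hB.2 a (h ha)⟩

omit [Finite G] in
theorem mem_AA {S A : Subgroup G} : A ∈ AA S ↔ A ≤ S ∧ EL A ∧ ∀ B ≤ S, EL B → Nat.card B ≤ Nat.card A :=
  ⟨fun h => ⟨h.1, ⟨h.2.1, h.2.2.1⟩, fun B hB hE => h.2.2.2 B hB hE.1 hE.2⟩,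
    fun h => ⟨h.1, h.2.1.1, h.2.1.2, fun B hB h1 h2 => h.2.2 B hB ⟨h1, h2⟩⟩⟩

theorem AA_nonempty (S : Subgroup G) : (AA S).Nonempty := by
  obtain ⟨A, hA, hmax⟩ := Set.exists_max_image {A : Subgroup G | A ≤ S ∧ EL A} (fun A => Nat.card A) (Set.toFinite _)
    ⟨⊥, bot_le, by
      constructor
      · intro a ha b hb
        rw [mem_bot] at ha hb; rw [ha, hb]
      · intro a ha
        rw [mem_bot] at ha; rw [ha, mul_one]⟩
  exact ⟨A, mem_AA.2 ⟨hA.1, hA.2, fun B hB hE => hmax B ⟨hB, hE⟩⟩⟩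

/-- elements (subgroups) commuting with `A` lie in `A` -/
theorem le_of_AA {S A B : Subgroup G} (hA : A ∈ AA S) (hB : B ≤ S) (hE : EL B) (hc : ∀ a ∈ A, ∀ b ∈ B, a * b = b * a) :
    B ≤ A := by
  have h1 := (mem_AA.1 hA)
  have h2 := h1.2.2 (A ⊔ B) (sup_le h1.1 hB) (h1.2.1.sup hE hc)
  have h3 : A = A ⊔ B := Subgroup.eq_of_le_of_card_ge le_sup_left h2
  rw [h3]; exact le_sup_right

/-- E1 -/
theorem strong_le {S T A V : Subgroup G} (hA : A ∈ AA S) (hAT : A ≤ T) (hTS : T ≤ S) (hV : Strong T V) : V ≤ A := by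
  have hA' := mem_AA.1 hA
  have hVE : EL V := ⟨hV.comm, hV.sq⟩
  have hVS : V ≤ S := hV.le.trans hTS
  by_cases hc : A ≤ centralizer (V : Set G)
  · exact le_of_AA hA hVS hVE (fun a ha v hv => (mem_centralizer_iff.1 (hc ha) v hv).symm)
  exfalso
  have h1 := (hV.ineq A hAT (fun a ha b hb => by
      rw [hA'.2.1.1 a ha b hb]
      have : b * a * a⁻¹ * b⁻¹ = 1 := by group
      rw [this]; exact one_mem _) (fun r hr => by rw [hA'.2.1.2 r hr]; exact one_mem _) hc).1
  have h2 := card_io V A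
  have h3 := card_io A V
  -- `V C_A(V)`
  set D := A ⊓ centralizer (V : Set G) with hD
  have hDE : EL D := hA'.2.1.mono inf_le_left
  have h4 : Nat.card ↥(V ⊔ D) ≤ Nat.card A := by
    refine hA'.2.2 _ (sup_le hVS (inf_le_left.trans hA'.1)) (hVE.sup hDE ?_)
    intro v hv d hd
    exact mem_centralizer_iff.1 hd.2 v hv
  have h5 : Nat.card ↥(V ⊔ D) * Nat.card ↥(V ⊓ D) = Nat.card V * Nat.card D := by
    apply H13.Thompson.card_sup_mul_card_inf
    have hcen : V ≤ centralizer (D : Set G) := by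
      rw [Subgroup.le_centralizer_iff]
      exact inf_le_right
    exact hcen.trans (centralizer_le_normalizer _)
  have h6 : Nat.card ↥(V ⊓ D) ≤ Nat.card ↥(V ⊓ centralizer (A : Set G)) := by
    apply Nat.card_mono (Set.toFinite _)
    have h7 : A ≤ centralizer (A : Set G) := by
      intro x hx
      rw [mem_centralizer_iff]
      intro y hy
      exact hA'.2.1.1 y hy x hx
    exact inf_le_inf_left V (inf_le_left.trans h7)
  -- `io V A ≤ io A V`
  have h8 : io V A ≤ io A V := by
    have p1 : 0 < Nat.card ↥(V ⊓ centralizer (A : Set G)) := Nat.card_pos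
    have p2 : 0 < Nat.card D := Nat.card_pos
    by_contra hcon
    push Not at hcon
    have e1 : Nat.card V * Nat.card D ≤ Nat.card A * Nat.card ↥(V ⊓ centralizer (A : Set G)) := by
      rw [← h5]; exact Nat.mul_le_mul h4 h6
    rw [← h2, ← h3] at e1
    have e2 : (Nat.card ↥(V ⊓ centralizer (A : Set G)) * Nat.card D) * io V A ≤
        (Nat.card ↥(V ⊓ centralizer (A : Set G)) * Nat.card D) * io A V := by
      calc _ = Nat.card ↥(V ⊓ centralizer (A : Set G)) * io V A * Nat.card D := by ring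
        _ ≤ _ := e1
        _ = _ := by ring
    have e3 := Nat.le_of_mul_le_mul_left e2 (by positivity)
    omega
  have h9 := io_pos A V
  have h10 : io V A ^ 2 ≤ io A V ^ 2 := Nat.pow_le_pow_left h8 2
  have h11 : io A V ^ 2 ≤ io A V ^ 3 := Nat.pow_le_pow_right h9 (by norm_num)
  omega

theorem JE_le (S : Subgroup G) : JE S ≤ S := sSup_le fun A hA => hA.1

/-- E2 -/
theorem le_cen_of_EG {S U T V : Subgroup G} (hJU : JE S ≤ U) (hUT : U ≤ T) (hTS : T ≤ S) (hU : EG U) (hV : Strong T V) :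
    U ≤ centralizer (V : Set G) := by
  apply hU
  have h1 : V ≤ U := by
    obtain ⟨A, hA⟩ := AA_nonempty S
    exact (strong_le hA (((le_sSup hA).trans hJU).trans hUT) hTS hV).trans ((le_sSup hA).trans hJU)
  exact ⟨h1, hUT.trans hV.nrm, hV.comm, hV.sq, fun R hR => hV.ineq R (hR.trans hUT)⟩

theorem AA_le_cen {S T V : Subgroup G} (hJT : JE S ≤ T) (hTS : T ≤ S) (hV : Strong T V) : JE S ≤ centralizer (V : Set G) := by
  apply sSup_le
  intro A hA
  have h1 := strong_le hA ((le_sSup hA).trans hJT) hTS hV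
  intro a ha
  rw [mem_centralizer_iff]
  intro v hv
  exact (mem_AA.1 hA).2.1.1 v (h1 hv) a ha

/-- E3 -/
theorem exists_last (S : Subgroup G) : ∃ T : Subgroup G, JE S ≤ T ∧ T ≤ S ∧ EG T ∧
    (∀ U : Subgroup G, JE S ≤ U → U ≤ S → EG U → U ≤ T) ∧
    ∀ X : Subgroup G, X ≤ S → (∀ T : Subgroup G, JE S ≤ T → T ≤ S → X ≤ T → ∀ V, Strong T V → X ≤ centralizer (V : Set G)) →
      X ≤ T := by
  have key : ∀ n : ℕ, ∀ T : Subgroup G, Nat.card T = n → JE S ≤ T → T ≤ S →
      (∀ U : Subgroup G, JE S ≤ U → U ≤ S → EG U → U ≤ T) →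
      (∀ X : Subgroup G, X ≤ S → (∀ T : Subgroup G, JE S ≤ T → T ≤ S → X ≤ T → ∀ V, Strong T V → X ≤ centralizer (V : Set G)) →
      X ≤ T) → ∃ T : Subgroup G, JE S ≤ T ∧ T ≤ S ∧ EG T ∧
    (∀ U : Subgroup G, JE S ≤ U → U ≤ S → EG U → U ≤ T) ∧
    ∀ X : Subgroup G, X ≤ S → (∀ T : Subgroup G, JE S ≤ T → T ≤ S → X ≤ T → ∀ V, Strong T V → X ≤ centralizer (V : Set G)) →
      X ≤ T := by
    intro n
    induction n using Nat.strong_induction_on with
    | _ n ih =>
      intro T hT hJT hTS hU hX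
      by_cases hE : EG T
      · exact ⟨T, hJT, hTS, hE, hU, hX⟩
      · unfold EG at hE
        push Not at hE
        obtain ⟨V, hV, hne⟩ := hE
        have hlt : T ⊓ centralizer (V : Set G) < T := by
          refine lt_of_le_of_ne inf_le_left (fun h => hne ?_)
          rw [← h]; exact inf_le_right
        have hc : Nat.card ↥(T ⊓ centralizer (V : Set G)) < n := by
          rw [← hT]
          by_contra hcon
          push Not at hcon
          exact hlt.ne (Subgroup.eq_of_le_of_card_ge hlt.le hcon)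
        refine ih _ hc _ rfl (le_inf hJT (AA_le_cen hJT hTS hV)) (hlt.le.trans hTS) ?_ ?_
        · intro U h1 h2 h3
          exact le_inf (hU U h1 h2 h3) (le_cen_of_EG h1 (hU U h1 h2 h3) hTS h3 hV)
        · intro X h1 h2
          exact le_inf (hX X h1 h2) (h2 T hJT hTS (hX X h1 h2) V hV)
  exact key _ S rfl (JE_le S) le_rfl (fun U _ h _ => h) (fun X h _ => h)

end main

end H52.EGr
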