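import Cfsg.Agent.Lib.H52.Foc1
import Cfsg.Agent.Lib.H51.SL2Pair2
import Cfsg.Prelude.Def_LocalEven

/-!
# Quadratic action from natural modules
-/

set_option autoImplicit false
set_option linter.unusedVariables false
set_option linter.unusedSectionVars false

namespace H52.Quad

open Subgroup Cfsg

section nat

variable {F : Type*} [Field F] {p : ℕ} [hp : Fact p.Prime] [CharP F p]

theorem sq_zero {x : Matrix.SpecialLinearGroup (Fin 2) F} (hx : x ^ p = 1) (v : Fin 2 → F) :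
    x.1.mulVec (x.1.mulVec v - v) - (x.1.mulVec v - v) = 0 := by
  have t := H51.SL2Pair2.trace_two (p := p) hx
  have d := x.2
  rw [Matrix.trace_fin_two] at t
  rw [Matrix.det_fin_two] at d
  ext i
  simp only [Pi.sub_apply, H51.SL2Pair2.mv, Pi.zero_apply]
  fin_cases i
  · simp only [Fin.zero_eta]
    linear_combination (x.1 0 0 * v 0 + x.1 0 1 * v 1) * t - v 0 * d
  · simp only [Fin.mk_one]
    linear_combination (x.1 1 1 * v 1 + x.1 1 0 * v 0) * t - v 1 * d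

theorem nat_quad {L : Type*} [Group L] {U R : Subgroup L} [R.Normal]
    (h : IsNaturalSL2Module F (U.map (QuotientGroup.mk' R)) (⊤ : Subgroup (L ⧸ R))) {a : L} (ha : a ^ p = 1)
    {u : L} (hu : u ∈ U) : a * (a * u * a⁻¹ * u⁻¹) * a⁻¹ * (a * u * a⁻¹ * u⁻¹)⁻¹ ∈ R := by
  obtain ⟨_, ρ, ψ, _, _, h3⟩ := h
  let v : ↥(U.map (QuotientGroup.mk' R)) := ⟨QuotientGroup.mk' R u, u, hu, rfl⟩
  let t : ↥(⊤ : Subgroup (L ⧸ R)) := ⟨QuotientGroup.mk' R a, trivial⟩
  have htp : (ρ t) ^ p = 1 := by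
    have : t ^ p = 1 := by
      apply Subtype.ext
      show (QuotientGroup.mk' R a) ^ p = 1
      rw [← map_pow, ha, map_one]
    rw [← map_pow, this, map_one]
  obtain ⟨w, hw1, hw2⟩ := h3 t v
  obtain ⟨w', hw1', hw2'⟩ := h3 t (w * v⁻¹)
  have e1 : ψ (Additive.ofMul (w * v⁻¹)) = ψ (Additive.ofMul w) - ψ (Additive.ofMul v) := by
    rw [sub_eq_add_neg, ← map_neg, ← map_add]; rfl
  have e2 : ψ (Additive.ofMul (w' * (w * v⁻¹)⁻¹)) = ψ (Additive.ofMul w') - ψ (Additive.ofMul (w * v⁻¹)) := by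
    rw [sub_eq_add_neg, ← map_neg, ← map_add]; rfl
  have e3 : ψ (Additive.ofMul (w' * (w * v⁻¹)⁻¹)) = 0 := by
    rw [e2, hw2', e1, hw2]
    exact sq_zero htp _
  have e4 : w' * (w * v⁻¹)⁻¹ = 1 := by
    have := ψ.injective (e3.trans (map_zero ψ).symm)
    exact this
  have e5 := congrArg Subtype.val e4
  rw [Subgroup.coe_mul, Subgroup.coe_inv, hw1', Subgroup.coe_mul, Subgroup.coe_inv, hw1] at e5
  have e6 : QuotientGroup.mk' R (a * (a * u * a⁻¹ * u⁻¹) * a⁻¹ * (a * u * a⁻¹ * u⁻¹)⁻¹) = 1 := by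
    rw [← show ((1 : ↥(U.map (QuotientGroup.mk' R))) : L ⧸ R) = 1 from rfl, ← e5]
    simp only [map_mul, map_inv]
    rfl
  exact (QuotientGroup.eq_one_iff _).1 e6

end nat

section Q

variable {G W : Type*} [Group G] [AddCommGroup W] [DistribMulAction G W]

/-- invariance -/
def Inv (K : Subgroup G) (D : AddSubgroup W) : Prop := ∀ k ∈ K, ∀ w ∈ D, k • w ∈ D

/-- minimal invariant subgroups -/
def Mi (K : Subgroup G) (U : AddSubgroup W) : Prop :=
  Inv K U ∧ U ≠ ⊥ ∧ ∀ D ≤ U, Inv K D → D = ⊥ ∨ D = U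

theorem exists_mi [Finite W] {K : Subgroup G} {U : AddSubgroup W} (hU : Inv K U) (hU1 : U ≠ ⊥) :
    ∃ U' ≤ U, Mi K U' := by
  obtain ⟨U', hU', hmin⟩ := Set.exists_min_image {D : AddSubgroup W | D ≤ U ∧ Inv K D ∧ D ≠ ⊥} (fun D => Nat.card D)
    (Set.toFinite _) ⟨U, le_rfl, hU, hU1⟩
  refine ⟨U', hU'.1, hU'.2.1, hU'.2.2, ?_⟩
  intro D hD hDi
  by_cases h : D = ⊥
  · exact Or.inl h
  · right
    have h1 := hmin D ⟨hD.trans hU'.1, hDi, h⟩
    exact AddSubgroup.eq_of_le_of_card_ge hD h1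

/-- `(a - 1)²` -/
def qd (W : Type*) [AddCommGroup W] [DistribMulAction G W] (a : G) : W →+ W :=
  ((DistribSMul.toAddMonoidHom W a) - AddMonoidHom.id W).comp ((DistribSMul.toAddMonoidHom W a) - AddMonoidHom.id W)

theorem qd_apply (a : G) (w : W) : qd W a w = a • (a • w - w) - (a • w - w) := rfl

theorem gmap_mem {g : G} {U : AddSubgroup W} {w : W} : w ∈ U.map (DistribSMul.toAddMonoidHom W g) ↔ g⁻¹ • w ∈ U := by
  constructor
  · rintro ⟨u, hu, rfl⟩
    show g⁻¹ • (g • u) ∈ U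
    rw [inv_smul_smul]; exact hu
  · intro h
    exact ⟨g⁻¹ • w, h, smul_inv_smul g w⟩

theorem Mi.map {N : Subgroup G} [hN : N.Normal] {U : AddSubgroup W} (h : Mi N U) (g : G) :
    Mi N (U.map (DistribSMul.toAddMonoidHom W g)) := by
  have inv_map : ∀ (g : G) (D : AddSubgroup W), Inv N D → Inv N (D.map (DistribSMul.toAddMonoidHom W g)) := by
    intro g D hD n hn w hw
    rw [gmap_mem] at hw ⊢
    have h1 := hD (g⁻¹ * n * g) (by
      have := hN.conj_mem n hn g⁻¹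
      rwa [inv_inv] at this) _ hw
    rwa [mul_smul, mul_smul, smul_inv_smul] at h1
  refine ⟨inv_map g U h.1, ?_, ?_⟩
  · intro h1
    apply h.2.1
    rw [eq_bot_iff]
    intro u hu
    have h2 : g • u ∈ U.map (DistribSMul.toAddMonoidHom W g) := ⟨u, hu, rfl⟩
    rw [h1, AddSubgroup.mem_bot] at h2
    rw [AddSubgroup.mem_bot]
    have h3 := congrArg (fun x => g⁻¹ • x) h2
    simpa using h3
  · intro D hD hDi
    have h1 : D.map (DistribSMul.toAddMonoidHom W g⁻¹) ≤ U := by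
      rintro _ ⟨d, hd, rfl⟩
      exact gmap_mem.1 (hD hd)
    rcases h.2.2 _ h1 (inv_map g⁻¹ D hDi) with h2 | h2
    · left
      rw [eq_bot_iff]
      intro d hd
      have h3 : g⁻¹ • d ∈ D.map (DistribSMul.toAddMonoidHom W g⁻¹) := ⟨d, hd, rfl⟩
      rw [h2, AddSubgroup.mem_bot] at h3
      rw [AddSubgroup.mem_bot]
      have h4 := congrArg (fun x => g • x) h3
      simpa using h4
    · right
      apply le_antisymm hD
      intro w hw
      rw [gmap_mem, ← h2, gmap_mem, inv_inv, smul_inv_smul] at hw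
      exact hw

/-- the module theoretic argument -/
theorem lemQ [Finite W] (hW : ∃ w : W, w ≠ 0)
    (irr : ∀ D : AddSubgroup W, Inv (⊤ : Subgroup G) D → D = ⊥ ∨ D = ⊤)
    {N R Z L : Subgroup G} [hNn : N.Normal] (hR : R ≤ N) (hZ : Z ≤ N) (hL : L ≤ N) (hN : N ≤ R ⊔ Z)
    (hcm : ∀ r ∈ R, ∀ z ∈ Z, ∀ w : W, r • z • w = z • r • w) {a : G} (ha : a ∈ R)
    (hRL : ∀ r ∈ R, ∃ l ∈ L, ∀ w : W, r • w = l • w)
    (nat : ∀ W₁ : AddSubgroup W, Mi L W₁ → ∀ w ∈ W₁, qd W a w = 0) : ∀ w : W, qd W a w = 0 := by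
  obtain ⟨w₀, hw₀⟩ := hW
  have key : ∀ U : AddSubgroup W, Mi N U → ∀ w ∈ U, qd W a w = 0 := by
    intro U hU
    obtain ⟨W₁, hW₁U, hW₁⟩ := exists_mi (K := L) (U := U) (fun k hk w hw => hU.1 k (hL hk) w hw) hU.2.1
    have hW₁R : ∀ r ∈ R, ∀ w ∈ W₁, r • w ∈ W₁ := by
      intro r hr w hw
      obtain ⟨l, hl, h⟩ := hRL r hr
      rw [h]; exact hW₁.1 l hl w hw
    set S' : AddSubgroup W := AddSubgroup.closure {x | ∃ z ∈ Z, ∃ w ∈ W₁, x = z • w} with hS'
    have hS'U : S' ≤ U := by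
      rw [hS', AddSubgroup.closure_le]
      rintro _ ⟨z, hz, w, hw, rfl⟩
      exact hU.1 z (hZ hz) w (hW₁U hw)
    have hW₁S : W₁ ≤ S' := fun w hw => AddSubgroup.subset_closure ⟨1, one_mem _, w, hw, (one_smul G w).symm⟩
    have hinv : ∀ k : G, (∀ x, (∃ z ∈ Z, ∃ w ∈ W₁, x = z • w) → k • x ∈ S') → ∀ x ∈ S', k • x ∈ S' := by
      intro k hk x hx
      have h1 : S' ≤ S'.comap (DistribSMul.toAddMonoidHom W k) := by
        conv_lhs => rw [hS']
        rw [AddSubgroup.closure_le]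
        intro y hy
        exact hk y hy
      exact h1 hx
    have hRinv : ∀ r ∈ R, ∀ x ∈ S', r • x ∈ S' := by
      intro r hr
      apply hinv
      rintro _ ⟨z, hz, w, hw, rfl⟩
      rw [hcm r hr z hz]
      exact AddSubgroup.subset_closure ⟨z, hz, r • w, hW₁R r hr w hw, rfl⟩
    have hZinv : ∀ z ∈ Z, ∀ x ∈ S', z • x ∈ S' := by
      intro z' hz'
      apply hinv
      rintro _ ⟨z, hz, w, hw, rfl⟩
      exact AddSubgroup.subset_closure ⟨z' * z, mul_mem hz' hz, w, hw, by rw [mul_smul]⟩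
    let K : Subgroup G :=
      { carrier := {g | ∀ x ∈ S', g • x ∈ S' ∧ g⁻¹ • x ∈ S'}
        one_mem' := fun x hx => by rw [inv_one, one_smul]; exact ⟨hx, hx⟩
        mul_mem' := by
          intro g g' hg hg' x hx
          rw [mul_inv_rev, mul_smul, mul_smul]
          exact ⟨(hg _ (hg' x hx).1).1, (hg' _ (hg x hx).2).2⟩
        inv_mem' := by
          intro g hg x hx
          rw [inv_inv]
          exact ⟨(hg x hx).2, (hg x hx).1⟩ }
    have hRZ : R ⊔ Z ≤ K := sup_le (fun r hr x hx => ⟨hRinv r hr x hx, hRinv r⁻¹ (inv_mem hr) x hx⟩)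
      (fun z hz x hx => ⟨hZinv z hz x hx, hZinv z⁻¹ (inv_mem hz) x hx⟩)
    have hS'N : Inv N S' := fun n hn x hx => (hRZ (hN hn) x hx).1
    have hS'1 : S' ≠ ⊥ := by
      intro h
      apply hW₁.2.1
      rw [eq_bot_iff, ← h]; exact hW₁S
    have hSU : S' = U := (hU.2.2 S' hS'U hS'N).resolve_left hS'1
    have hker : S' ≤ (qd W a).ker := by
      rw [hS', AddSubgroup.closure_le]
      rintro _ ⟨z, hz, w, hw, rfl⟩
      show qd W a (z • w) = 0
      have h1 := nat W₁ hW₁ w hw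
      rw [qd_apply] at h1 ⊢
      rw [hcm a ha z hz, ← smul_sub, hcm a ha z hz, ← smul_sub, h1, smul_zero]
    intro w hw
    rw [← hSU] at hw
    exact hker hw
  obtain ⟨U, _, hU⟩ := exists_mi (K := N) (U := (⊤ : AddSubgroup W)) (fun _ _ _ _ => AddSubgroup.mem_top _) (by
    intro h
    apply hw₀
    have h1 : w₀ ∈ (⊤ : AddSubgroup W) := AddSubgroup.mem_top _
    rwa [h, AddSubgroup.mem_bot] at h1)
  let D : AddSubgroup W :=
    { carrier := {w | ∀ g : G, qd W a (g • w) = 0}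
      zero_mem' := fun g => by rw [smul_zero, map_zero]
      add_mem' := by
        intro x y hx hy g
        rw [smul_add, map_add, hx g, hy g, add_zero]
      neg_mem' := by
        intro x hx g
        rw [smul_neg, map_neg, hx g, neg_zero] }
  have hD : Inv (⊤ : Subgroup G) D := by
    intro k _ w hw g
    rw [← mul_smul]; exact hw _
  have hUD : U ≤ D := by
    intro u hu g
    exact key _ (hU.map g) _ ⟨u, hu, rfl⟩
  have hDtop : D = ⊤ := (irr D hD).resolve_left (fun h => hU.2.1 (by rw [eq_bot_iff, ← h]; exact hUD))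
  intro w
  have h1 : w ∈ D := by rw [hDtop]; exact AddSubgroup.mem_top _
  have h2 := h1 1
  rwa [one_smul] at h2

end Q

/-- `W` is the section `X / Y` -/
structure Sec {G W : Type*} [Group G] [AddCommGroup W] [DistribMulAction G W] (X Y : Subgroup G) [Y.Normal]
    (j : W → G ⧸ Y) : Prop where
  inj : Function.Injective j
  rng : ∀ x : G ⧸ Y, x ∈ X.map (QuotientGroup.mk' Y) ↔ ∃ w, j w = x
  add : ∀ x y, j (x + y) = j x * j y
  act : ∀ (g : G) (w : W), j (g • w) = QuotientGroup.mk' Y g * j w * (QuotientGroup.mk' Y g)⁻¹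

section sec

variable {G W : Type*} [Group G] [AddCommGroup W] [DistribMulAction G W] {X Y : Subgroup G} [hYn : Y.Normal]
  {j : W → G ⧸ Y} (c : Sec X Y j)

include c

theorem Sec.zero : j 0 = 1 := by
  have h := c.add 0 0
  rw [add_zero] at h
  exact left_eq_mul.1 h

theorem Sec.neg (x : W) : j (-x) = (j x)⁻¹ := by
  apply eq_inv_of_mul_eq_one_left
  rw [← c.add, neg_add_cancel, c.zero]

theorem Sec.sub (x y : W) : j (x - y) = j x * (j y)⁻¹ := by
  rw [sub_eq_add_neg, c.add, c.neg]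

theorem Sec.cm (g : G) {x : G} {w : W} (h : j w = QuotientGroup.mk' Y x) :
    j (g • w - w) = QuotientGroup.mk' Y (g * x * g⁻¹ * x⁻¹) := by
  rw [c.sub, c.act, h]
  simp only [map_mul, map_inv]

/-- the preimage of a subgroup of the section -/
def Sec.pre (D : AddSubgroup W) : Subgroup G where
  carrier := {x | ∃ d ∈ D, j d = QuotientGroup.mk' Y x}
  one_mem' := ⟨0, AddSubgroup.zero_mem _, by rw [c.zero, map_one]⟩
  mul_mem' := by
    rintro x y ⟨d, hd, h⟩ ⟨d', hd', h'⟩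
    exact ⟨d + d', AddSubgroup.add_mem _ hd hd', by rw [c.add, h, h', map_mul]⟩
  inv_mem' := by
    rintro x ⟨d, hd, h⟩
    exact ⟨-d, AddSubgroup.neg_mem _ hd, by rw [c.neg, h, map_inv]⟩

theorem Sec.mem_pre {D : AddSubgroup W} {x : G} : x ∈ c.pre D ↔ ∃ d ∈ D, j d = QuotientGroup.mk' Y x := Iff.rfl

theorem Sec.Y_le (D : AddSubgroup W) : Y ≤ c.pre D := by
  intro y hy
  refine ⟨0, AddSubgroup.zero_mem _, ?_⟩
  rw [c.zero]
  exact ((QuotientGroup.eq_one_iff y).2 hy).symm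

theorem Sec.pre_le (hYX : Y ≤ X) (D : AddSubgroup W) : c.pre D ≤ X := by
  rintro x ⟨d, _, h⟩
  have h1 : QuotientGroup.mk' Y x ∈ X.map (QuotientGroup.mk' Y) := (c.rng _).2 ⟨d, h⟩
  obtain ⟨x', hx', h2⟩ := h1
  have h3 : x'⁻¹ * x ∈ Y := by
    rw [← QuotientGroup.eq_one_iff]
    have h4 : QuotientGroup.mk' Y (x'⁻¹ * x) = 1 := by rw [map_mul, map_inv, h2, inv_mul_cancel]
    exact h4
  have := mul_mem hx' (hYX h3)
  rwa [mul_inv_cancel_left] at this

theorem Sec.pre_conj {D : AddSubgroup W} {g : G} (hg : ∀ w ∈ D, g • w ∈ D) {x : G} (hx : x ∈ c.pre D) :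
    g * x * g⁻¹ ∈ c.pre D := by
  obtain ⟨d, hd, h⟩ := hx
  refine ⟨g • d, hg d hd, ?_⟩
  rw [c.act, h]
  simp only [map_mul, map_inv]

/-- irreducibility -/
theorem Sec.irr (hc : IsChiefFactor X Y) (D : AddSubgroup W) (hD : Inv (⊤ : Subgroup G) D) : D = ⊥ ∨ D = ⊤ := by
  have hn : (c.pre D).Normal := ⟨fun x hx g => c.pre_conj (fun w hw => hD g trivial w hw) hx⟩
  rcases hc.2.2.2 (c.pre D) hn (c.Y_le D) (c.pre_le hc.1.le D) with h | h
  · left
    rw [eq_bot_iff]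
    intro d hd
    obtain ⟨x, hx⟩ := QuotientGroup.mk'_surjective Y (j d)
    have h1 : x ∈ c.pre D := ⟨d, hd, hx.symm⟩
    rw [h] at h1
    rw [AddSubgroup.mem_bot]
    apply c.inj
    rw [c.zero, ← hx]
    exact (QuotientGroup.eq_one_iff x).2 h1
  · right
    rw [eq_top_iff]
    intro w _
    have h1 : j w ∈ X.map (QuotientGroup.mk' Y) := (c.rng _).2 ⟨w, rfl⟩
    obtain ⟨x, hx, h2⟩ := h1
    rw [SetLike.mem_coe, ← h] at hx
    obtain ⟨d, hd, h3⟩ := hx
    have h4 : d = w := c.inj (h3.trans h2)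
    rw [← h4]; exact hd

theorem Sec.nontriv (hc : IsChiefFactor X Y) : ∃ w : W, w ≠ 0 := by
  obtain ⟨x, hx, hxY⟩ := SetLike.exists_of_lt hc.1
  obtain ⟨w, hw⟩ := (c.rng _).1 ⟨x, hx, rfl⟩
  refine ⟨w, ?_⟩
  rintro rfl
  apply hxY
  rw [c.zero] at hw
  exact (QuotientGroup.eq_one_iff x).1 hw.symm

/-- the natural factors of `L` act on the section -/
theorem Sec.nat [Finite G] {p : ℕ} [hp : Fact p.Prime] {F : Type*} [Field F] [CharP F p] (hXp : IsPGroup p X) (hYX : Y ≤ X)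
    {L : Subgroup G} (hXL : ∀ x ∈ X, ∀ l ∈ L, l * x * l⁻¹ * x⁻¹ ∈ L)
    (h : ∀ (U R : Subgroup ↥L) [R.Normal], U ≤ pCore p ↥L → IsChiefFactor U R → ¬ ⁅U, (⊤ : Subgroup ↥L)⁆ ≤ R →
        IsNaturalSL2Module F (U.map (QuotientGroup.mk' R)) (⊤ : Subgroup (↥L ⧸ R)))
    {a : G} (haL : a ∈ L) (hap : a ^ p = 1) {W₁ : AddSubgroup W} (hW₁ : Mi L W₁) : ∀ w ∈ W₁, qd W a w = 0 := by
  have aux : ∀ N' : Subgroup G, (∀ l ∈ L, ∀ x ∈ N', l * x * l⁻¹ ∈ N') → N' ≤ L →
      (∀ w ∈ W₁, ∀ x ∈ N', j w = QuotientGroup.mk' Y x → w = 0) ∨ (∀ w ∈ W₁, ∃ x ∈ N', j w = QuotientGroup.mk' Y x) := by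
    intro N' hN' hN'L
    let D : AddSubgroup W :=
      { carrier := {w | w ∈ W₁ ∧ ∃ x ∈ N', j w = QuotientGroup.mk' Y x}
        zero_mem' := ⟨AddSubgroup.zero_mem _, 1, one_mem _, by rw [c.zero, map_one]⟩
        add_mem' := by
          rintro x y ⟨hx, x', hx', h1⟩ ⟨hy, y', hy', h2⟩
          exact ⟨AddSubgroup.add_mem _ hx hy, x' * y', mul_mem hx' hy', by rw [c.add, h1, h2, map_mul]⟩
        neg_mem' := by
          rintro x ⟨hx, x', hx', h1⟩
          exact ⟨AddSubgroup.neg_mem _ hx, x'⁻¹, inv_mem hx', by rw [c.neg, h1, map_inv]⟩ }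
    have hD : Inv L D := by
      rintro l hl w ⟨hw, x, hx, h1⟩
      refine ⟨hW₁.1 l hl w hw, l * x * l⁻¹, hN' l hl x hx, ?_⟩
      rw [c.act, h1]
      simp only [map_mul, map_inv]
    rcases hW₁.2.2 D (fun w hw => hw.1) hD with h1 | h1
    · left
      intro w hw x hx h2
      have h3 : w ∈ D := ⟨hw, x, hx, h2⟩
      rwa [h1, AddSubgroup.mem_bot] at h3
    · right
      intro w hw
      have h3 : w ∈ D := by rw [h1]; exact hw
      exact h3.2
  set U' := c.pre W₁ with hU'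
  have hU'X : U' ≤ X := c.pre_le hYX W₁
  have hU'L : ∀ l ∈ L, ∀ x ∈ U', l * x * l⁻¹ ∈ U' := fun l hl x hx => c.pre_conj (fun w hw => hW₁.1 l hl w hw) hx
  intro w hw
  have fixed : a • w = w → qd W a w = 0 := by
    intro h1
    rw [qd_apply, h1, sub_self, smul_zero, sub_zero]
  have hUn : ∀ l ∈ L, ∀ x ∈ U' ⊓ L, l * x * l⁻¹ ∈ U' ⊓ L := by
    rintro l hl x ⟨hx1, hx2⟩
    exact mem_inf.2 ⟨hU'L l hl x hx1, mul_mem (mul_mem hl hx2) (inv_mem hl)⟩
  rcases aux (U' ⊓ L) hUn inf_le_right with h1 | h1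
  · -- trivial action
    apply fixed
    obtain ⟨x, hx⟩ := QuotientGroup.mk'_surjective Y (j w)
    have hxU : x ∈ U' := ⟨w, hw, hx.symm⟩
    have h2 : a * x * a⁻¹ * x⁻¹ ∈ U' ⊓ L :=
      mem_inf.2 ⟨mul_mem (hU'L a haL x hxU) (inv_mem hxU), hXL x (hU'X hxU) a haL⟩
    exact sub_eq_zero.1 (h1 (a • w - w) (AddSubgroup.sub_mem _ (hW₁.1 a haL w hw) hw) _ h2 (c.cm a hx.symm))
  · obtain ⟨x, hx, hxw⟩ := h1 w hw
    have hUnor : (U'.subgroupOf L).Normal := ⟨fun y hy l => hU'L l l.2 y hy⟩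
    have hRnor : (Y.subgroupOf L).Normal := inferInstance
    by_cases htr : ⁅U'.subgroupOf L, (⊤ : Subgroup ↥L)⁆ ≤ Y.subgroupOf L
    · apply fixed
      have h2 : (⟨a, haL⟩ : ↥L) * (⟨x, hx.2⟩ : ↥L) * (⟨a, haL⟩ : ↥L)⁻¹ * (⟨x, hx.2⟩ : ↥L)⁻¹ ∈ Y.subgroupOf L := by
        apply htr
        rw [commutator_comm]
        exact commutator_mem_commutator (mem_top _) hx.1
      have h3 : a * x * a⁻¹ * x⁻¹ ∈ Y := h2
      have h4 := c.cm a hxw
      have h5 : QuotientGroup.mk' Y (a * x * a⁻¹ * x⁻¹) = 1 := (QuotientGroup.eq_one_iff _).2 h3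
      rw [h5, ← c.zero] at h4
      exact sub_eq_zero.1 (c.inj h4)
    · have hch : IsChiefFactor (U'.subgroupOf L) (Y.subgroupOf L) := by
        refine ⟨?_, hUnor, hRnor, ?_⟩
        · refine lt_of_le_of_ne (fun y hy => c.Y_le W₁ hy) ?_
          intro h2
          apply hW₁.2.1
          rw [eq_bot_iff]
          intro d hd
          obtain ⟨y, hy, hyd⟩ := h1 d hd
          have h3 : (⟨y, hy.2⟩ : ↥L) ∈ Y.subgroupOf L := by rw [h2]; exact hy.1
          have h4 : QuotientGroup.mk' Y y = 1 := (QuotientGroup.eq_one_iff _).2 h3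
          rw [h4, ← c.zero] at hyd
          exact AddSubgroup.mem_bot.2 (c.inj hyd)
        · intro N' hN'n hYN hNU
          have e1 : ∀ l ∈ L, ∀ y ∈ N'.map L.subtype, l * y * l⁻¹ ∈ N'.map L.subtype := by
            rintro l hl _ ⟨y, hy, rfl⟩
            exact ⟨⟨l, hl⟩ * y * ⟨l, hl⟩⁻¹, hN'n.conj_mem y hy ⟨l, hl⟩, rfl⟩
          rcases aux (N'.map L.subtype) e1 (map_subtype_le N') with h2 | h2
          · left
            refine le_antisymm ?_ hYN
            intro y hy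
            obtain ⟨d, hd, hdy⟩ := (hNU hy : (y : G) ∈ U')
            have h3 := h2 d hd y ⟨y, hy, rfl⟩ hdy
            rw [h3, c.zero] at hdy
            have hdy' : QuotientGroup.mk' Y (y : G) = 1 := hdy.symm
            exact (QuotientGroup.eq_one_iff (y : G)).1 hdy'
          · right
            refine le_antisymm hNU ?_
            intro y hy
            obtain ⟨d, hd, hdy⟩ := (hy : (y : G) ∈ U')
            obtain ⟨_, ⟨y', hy', rfl⟩, h3⟩ := h2 d hd
            replace h3 : j d = QuotientGroup.mk' Y (y' : G) := h3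
            replace hdy : j d = QuotientGroup.mk' Y (y : G) := hdy
            have h4 : y'⁻¹ * y ∈ Y.subgroupOf L := by
              show (y' : G)⁻¹ * y ∈ Y
              rw [← QuotientGroup.eq_one_iff]
              have h5 : QuotientGroup.mk' Y ((y' : G)⁻¹ * y) = 1 := by
                rw [map_mul, map_inv, ← hdy, h3, inv_mul_cancel]
              exact h5
            have := mul_mem hy' (hYN h4)
            rwa [mul_inv_cancel_left] at this
      have hUp : U'.subgroupOf L ≤ pCore p ↥L := by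
        apply H1.Cores.le_pCore hUnor
        have h2 : IsPGroup p ↥(U' ⊓ L) := hXp.to_le (inf_le_left.trans hU'X)
        exact (hXp.to_le hU'X).comap_of_injective L.subtype L.subtype_injective
      have h2 := nat_quad (p := p) (h _ _ hUp hch htr) (a := ⟨a, haL⟩) (Subtype.ext hap) (u := ⟨x, hx.2⟩) hx.1
      have h3 : a * (a * x * a⁻¹ * x⁻¹) * a⁻¹ * (a * x * a⁻¹ * x⁻¹)⁻¹ ∈ Y := h2
      have h4 := c.cm a hxw
      have h5 := c.cm a h4
      have h6 : QuotientGroup.mk' Y (a * (a * x * a⁻¹ * x⁻¹) * a⁻¹ * (a * x * a⁻¹ * x⁻¹)⁻¹) = 1 :=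
        (QuotientGroup.eq_one_iff _).2 h3
      rw [h6, ← c.zero] at h5
      exact c.inj h5

end sec

end H52.Quad
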