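import Mathlib
import Cfsg.Agent.Lib.H98.Dickson
import Cfsg.Agent.Lib.H98.DicksonPSL

set_option autoImplicit false
set_option linter.style.haveILetI false

/-! Subgroups of `PGL₂(p)` properly containing `Sym(4)`, and their subgroups of index at most two. -/

namespace H52.P11D

open MulAction Matrix OnePoint H98.Moebius H98.DicksonField H98.DicksonPGL H98.Dickson H98.DicksonPSL Subgroup
open scoped H98.Moebius

/-- a subfield of a field of prime order is everything -/
theorem subfield_top {F : Type*} [Field F] [Fintype F] (hp : (Fintype.card F).Prime) (K : Subfield F) (x : F) :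
    x ∈ K := by
  have h1 : Nat.card K.toAddSubgroup ∣ Nat.card F := AddSubgroup.card_addSubgroup_dvd_card _
  rw [Nat.card_eq_fintype_card (α := F)] at h1
  rcases (Nat.dvd_prime hp).mp h1 with h | h
  · exfalso
    have h2 : K.toAddSubgroup = ⊥ := AddSubgroup.card_eq_one.mp h
    have h3 : (1 : F) ∈ K.toAddSubgroup := K.one_mem
    rw [h2, AddSubgroup.mem_bot] at h3
    exact one_ne_zero h3
  · have h2 : K.toAddSubgroup = ⊤ := by
      apply AddSubgroup.eq_top_of_card_eq
      rw [h, Nat.card_eq_fintype_card]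
    have h3 : x ∈ K.toAddSubgroup := by rw [h2]; trivial
    exact h3

theorem no_dihedral {n : ℕ} (f : Equiv.Perm (Fin 4) →* DihedralGroup n) (hf : Function.Injective f) : False := by
  have key : ∀ a : Equiv.Perm (Fin 4), a ^ 2 ≠ 1 → ∃ i : ZMod n, f a = DihedralGroup.r i := by
    intro a ha
    cases h : f a with
    | r i => exact ⟨i, rfl⟩
    | sr i =>
      exfalso
      apply ha
      apply hf
      rw [map_pow, h, map_one, sq, DihedralGroup.sr_mul_self]
  obtain ⟨i, hi⟩ := key (Equiv.swap 0 1 * Equiv.swap 1 2) (by decide)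
  obtain ⟨j, hj⟩ := key (Equiv.swap 1 2 * Equiv.swap 2 3) (by decide)
  have : (Equiv.swap 0 1 * Equiv.swap 1 2) * (Equiv.swap 1 2 * Equiv.swap 2 3) =
      (Equiv.swap 1 2 * Equiv.swap 2 3) * (Equiv.swap (0 : Fin 4) 1 * Equiv.swap 1 2) := by
    apply hf
    rw [map_mul, map_mul f (Equiv.swap 1 2 * Equiv.swap 2 3), hi, hj, DihedralGroup.r_mul_r, DihedralGroup.r_mul_r,
      add_comm]
  revert this
  decide

/-- the image of `PSL₂` in `PGL₂` is normal -/
theorem range_conj {F : Type*} [Field F] (h : ProjGenLinGroup (Fin 2) F) (x : ProjectiveSpecialLinearGroup (Fin 2) F) :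
    ∃ s : ProjectiveSpecialLinearGroup (Fin 2) F,
      h * ProjectiveSpecialLinearGroup.toPGL x * h⁻¹ = ProjectiveSpecialLinearGroup.toPGL s := by
  obtain ⟨g, rfl⟩ := ProjGenLinGroup.mk_surjective h
  obtain ⟨m, rfl⟩ := QuotientGroup.mk_surjective x
  let s : SpecialLinearGroup (Fin 2) F := ⟨(g * SpecialLinearGroup.toGL m * g⁻¹ : GL (Fin 2) F), by
    have h1 : (Matrix.GeneralLinearGroup.det (g * SpecialLinearGroup.toGL m * g⁻¹)) = 1 := by
      rw [map_mul, map_mul, map_inv, mul_comm, ← mul_assoc, inv_mul_cancel, one_mul]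
      ext
      exact m.2
    exact congrArg Units.val h1⟩
  refine ⟨(s : ProjectiveSpecialLinearGroup (Fin 2) F), ?_⟩
  have h2 : SpecialLinearGroup.toGL s = g * SpecialLinearGroup.toGL m * g⁻¹ := Units.ext rfl
  have h3 : ProjectiveSpecialLinearGroup.toPGL (s : ProjectiveSpecialLinearGroup (Fin 2) F) =
      ProjGenLinGroup.mk (SpecialLinearGroup.toGL s) := ProjectiveSpecialLinearGroup.toPGL_mk s
  have h4 : ProjectiveSpecialLinearGroup.toPGL (m : ProjectiveSpecialLinearGroup (Fin 2) F) =
      ProjGenLinGroup.mk (SpecialLinearGroup.toGL m) := ProjectiveSpecialLinearGroup.toPGL_mk m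
  rw [h3, h2, map_mul, map_mul, map_inv]
  exact congrArg (fun z => ProjGenLinGroup.mk g * z * (ProjGenLinGroup.mk g)⁻¹) h4

theorem dg {F : Type*} [Field F] [Fintype F] [DecidableEq F] (hp : (Fintype.card F).Prime) (h2 : (2 : F) ≠ 0)
    {X : Type*} [Group X] [Finite X] (σ : X →* ProjGenLinGroup (Fin 2) F) (hσ : Function.Injective σ)
    (f : Equiv.Perm (Fin 4) →* X) (hf : Function.Injective f) (hne : ¬ Function.Surjective f)
    (L : Subgroup X) [L.Normal] (hL : L.index ≤ 2) :
    ∀ x : ProjectiveSpecialLinearGroup (Fin 2) F, ∃ l ∈ L, σ l = ProjectiveSpecialLinearGroup.toPGL x := by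
  classical
  set p := Fintype.card F with hpF
  haveI : Fact p.Prime := ⟨hp⟩
  haveI : CharP F p := by
    obtain ⟨q, hq⟩ := CharP.exists F
    obtain ⟨n, hqp, hn⟩ := FiniteField.card F q
    have h3 : q = p := by
      have h4 : q ∣ p := by rw [hpF, hn]; exact dvd_pow_self q n.pos.ne'
      exact (Nat.prime_dvd_prime_iff_eq hqp hp).mp h4
    rw [← h3]; exact hq
  have hp2 : p ≠ 2 := by
    intro h
    apply h2
    have := CharP.cast_eq_zero F p
    rw [h] at this
    exact_mod_cast this
  have hc24 : Nat.card (Equiv.Perm (Fin 4)) = 24 := by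
    rw [Nat.card_perm, Nat.card_eq_fintype_card, Fintype.card_fin]; rfl
  have h24 : 24 ∣ Nat.card X := by
    rw [← hc24]; exact card_dvd_of_injective f hf
  have hne24 : Nat.card X ≠ 24 := by
    intro h
    apply hne
    haveI := Fintype.ofFinite X
    have h3 : Fintype.card (Equiv.Perm (Fin 4)) = Fintype.card X := by
      rw [← Nat.card_eq_fintype_card, ← Nat.card_eq_fintype_card, h, hc24]
    exact ((Fintype.bijective_iff_injective_and_card f).mpr ⟨hf, h3⟩).2
  have hfin : Finite (ProjGenLinGroup (Fin 2) F) := inferInstanceAs (Finite (_ ⧸ _))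
  have hp3 : p ≠ 3 := by
    intro h
    have h3 : Nat.card X ∣ Nat.card (ProjGenLinGroup (Fin 2) F) := card_dvd_of_injective σ hσ
    rw [card_pgl_eq, Nat.card_eq_fintype_card (α := F), ← hpF, h] at h3
    exact hne24 (Nat.dvd_antisymm h3 h24)
  have hcomm : ¬ ∀ a b : Equiv.Perm (Fin 4), a * b = b * a := by decide
  -- the range contains `PSL₂`
  have hR : ∀ x : ProjectiveSpecialLinearGroup (Fin 2) F, ∃ y : X, σ y = ProjectiveSpecialLinearGroup.toPGL x := by
    rcases dickson_pgl p σ hσ with ⟨hp1, hcyc⟩ | ⟨c, hc2, hcp, -, ⟨e⟩⟩ | ⟨hpH, x₀, hfix, g, hg, hgx⟩ | ⟨h1, h3, h⟩ | ⟨h1, h3, h⟩ | ⟨h1, h3, h⟩ |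
      ⟨P, K, h, hK, hcase⟩
    · exfalso
      apply hcomm
      intro a b
      apply hf
      rw [map_mul, map_mul]
      letI := IsCyclic.commGroup (α := X)
      exact mul_comm (f a) (f b)
    · exact absurd (no_dihedral (e.toMonoidHom.comp f) (e.injective.comp hf)) id
    · exfalso
      obtain ⟨h3, -⟩ := commutator_of_fixed p σ hσ x₀ hfix
      let u : Equiv.Perm (Fin 4) := Equiv.swap 0 1 * Equiv.swap 1 2
      let v : Equiv.Perm (Fin 4) := Equiv.swap 1 2 * Equiv.swap 2 3
      have huv : (u * v * u⁻¹ * v⁻¹) ^ 2 = 1 := by decide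
      have huv1 : (u * v * u⁻¹ * v⁻¹) ≠ 1 := by decide
      have h4 : f (u * v * u⁻¹ * v⁻¹) ^ p = 1 := by
        apply h3
        rw [map_mul, map_mul, map_mul, map_inv, map_inv, _root_.commutator_def]
        exact Subgroup.commutator_mem_commutator (mem_top (f u)) (mem_top (f v))
      apply huv1
      apply hf
      rw [map_one]
      obtain ⟨k, hk⟩ := hp.odd_of_ne_two hp2
      rw [hk, pow_succ, pow_mul, ← map_pow, huv, map_one, one_pow, one_mul] at h4
      exact h4
    · exfalso
      rw [h3] at h24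
      revert h24; decide
    · exact absurd h3 hne24
    · exfalso
      rw [h3] at h24
      revert h24; decide
    · have hKs : Function.Surjective K.subtype := fun x => ⟨⟨x, subfield_top hp K x⟩, rfl⟩
      have hrange : (ProjectiveSpecialLinearGroup.toPGL : ProjectiveSpecialLinearGroup (Fin 2) F →* _).range ≤
          σ.range.map (MulAut.conj h).toMonoidHom := by
        have hb : (pslHom K.subtype).range ≤ σ.range.map (MulAut.conj h).toMonoidHom := by
          rcases hcase with h3 | ⟨-, h3⟩
          · rw [h3]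
            rintro _ ⟨g, rfl⟩
            exact ⟨ProjectiveSpecialLinearGroup.toPGL g, rfl⟩
          · rw [h3]
        have hid : ProjectiveSpecialLinearGroup.toPGL = pslHom (RingHom.id F) := by
          rw [pslHom, ProjGenLinGroup.map_id, MonoidHom.id_comp]
        rw [hid]
        apply range_pslHom_le
        · intro b
          obtain ⟨b', hb'⟩ := hKs b
          rw [RingHom.id_apply, ← hb', ← pslHom_up]
          exact hb ⟨_, rfl⟩
        · intro b
          obtain ⟨b', hb'⟩ := hKs b
          rw [RingHom.id_apply, ← hb', ← pslHom_lo]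
          exact hb ⟨_, rfl⟩
      intro x
      obtain ⟨s', hs'⟩ := range_conj h x
      obtain ⟨_, ⟨y, rfl⟩, hy⟩ := hrange ⟨s', rfl⟩
      refine ⟨y, ?_⟩
      have h3 : h * σ y * h⁻¹ = h * ProjectiveSpecialLinearGroup.toPGL x * h⁻¹ := by
        rw [hs']; exact hy
      exact mul_left_cancel (mul_right_cancel h3)
  -- the preimage of `L`
  let T : Subgroup (ProjectiveSpecialLinearGroup (Fin 2) F) := (L.map σ).comap ProjectiveSpecialLinearGroup.toPGL
  have hTn : T.Normal := by
    constructor
    rintro t ⟨l, hl, hlt⟩ y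
    obtain ⟨x, hx⟩ := hR y
    refine ⟨x * l * x⁻¹, (inferInstance : L.Normal).conj_mem l hl x, ?_⟩
    rw [map_mul, map_mul, map_inv, hlt, hx, map_mul, map_mul, map_inv]
  have hsimp : IsSimpleGroup (ProjectiveSpecialLinearGroup (Fin 2) F) :=
    Matrix.ProjectiveSpecialLinearGroup.rank_two_simple (by
      rw [Nat.card_eq_fintype_card, ← hpF]
      have := hp.two_le
      omega)
  have hsq : ∀ y, y ^ 2 ∈ T := by
    intro y
    obtain ⟨x, hx⟩ := hR y
    refine ⟨x ^ 2, ?_, by rw [map_pow, map_pow, hx]⟩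
    have h0 : L.index ≠ 0 := Subgroup.index_ne_zero_of_finite
    have h3 : L.index = 1 ∨ L.index = 2 := by omega
    rcases h3 with h3 | h3
    · rw [Subgroup.index_eq_one] at h3
      rw [h3]; trivial
    · exact Subgroup.sq_mem_of_index_two h3 x
  have hT : T = ⊤ := by
    rcases hsimp.eq_bot_or_eq_top_of_normal T hTn with h | h
    · exfalso
      have h5 : ((up (1 : F) : SpecialLinearGroup (Fin 2) F) : ProjectiveSpecialLinearGroup (Fin 2) F) ^ 2 = 1 := by
        have := hsq ((up (1 : F) : SpecialLinearGroup (Fin 2) F) : ProjectiveSpecialLinearGroup (Fin 2) F)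
        rwa [h, Subgroup.mem_bot] at this
      have h6 : (pslHom (RingHom.id F) ((up (1 : F) : SpecialLinearGroup (Fin 2) F) : ProjectiveSpecialLinearGroup (Fin 2) F)) ^ 2 = 1 := by
        rw [← map_pow, h5, map_one]
      rw [pslHom_up, RingHom.id_apply, sq, aff_mul, ← aff_one] at h6
      have := (aff_inj h6).2
      apply h2
      rw [← this]
      simp
      norm_num
    · exact h
  intro x
  have : x ∈ T := by rw [hT]; trivial
  obtain ⟨l, hl, hlx⟩ := this
  exact ⟨l, hl, hlx⟩

/-- the same with `mk` of matrices of determinant one -/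
theorem dg' {F : Type*} [Field F] [Fintype F] [DecidableEq F] (hp : (Fintype.card F).Prime) (h2 : (2 : F) ≠ 0)
    {X : Type*} [Group X] [Finite X] (σ : X →* ProjGenLinGroup (Fin 2) F) (hσ : Function.Injective σ)
    (f : Equiv.Perm (Fin 4) →* X) (hf : Function.Injective f) (hne : ¬ Function.Surjective f)
    (L : Subgroup X) [L.Normal] (hL : L.index ≤ 2) (m : SpecialLinearGroup (Fin 2) F) :
    ∃ l ∈ L, σ l = ProjGenLinGroup.mk (SpecialLinearGroup.toGL m) := by
  obtain ⟨l, hl, h⟩ := dg hp h2 σ hσ f hf hne L hL (m : ProjectiveSpecialLinearGroup (Fin 2) F)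
  exact ⟨l, hl, h.trans (ProjectiveSpecialLinearGroup.toPGL_mk m)⟩

end H52.P11D
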